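import Cfsg.Agent.J2Hundred.U33
import Cfsg.Agent.G2Two.Data
import Cfsg.Agent.Chev.FieldMap
import Cfsg.Prelude.Def_ChevG2

/-!
`G₂(2)′ ≅ PSU(3, 3)`.
-/

set_option autoImplicit false
set_option maxRecDepth 100000
set_option Elab.async false

namespace CfsgLib.G2Two

open Cfsg.Lie Matrix CfsgLib.J2Hundred.U33
open scoped commutatorElement

/-- The group. -/
abbrev G : Subgroup (GL chevG2.Idx (ZMod 2)) := chevG2.group (ZMod 2)

/-- The number of a basis vector. -/
def code : chevG2.Idx → ℕ := Sum.elim (fun i => i.val) (fun s => 2 + s.val)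

/-- A vector of the orbit. -/
def vec (k : Fin 63) : chevG2.Idx → ZMod 2 := fun i =>
  if (Data.vecs.getD k.val 0).testBit (code i) then 1 else 0

/-- The matrix of a root element from the table. -/
def tMat (r : Fin 12) : Matrix chevG2.Idx chevG2.Idx (ZMod 2) := Matrix.of fun i j =>
  if ((Data.matRows.getD r.val []).getD (code i) 0).testBit (code j) then 1 else 0

/-- The permutation of a root element. -/
def gq (r : Fin 12) (k : Fin 63) : Fin 63 := Fin.ofNat 63 ((Data.perms.getD r.val []).getD k.val 0)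

/-- The index set as a list. -/
def ixs : List chevG2.Idx := (List.finRange _).map Sum.inl ++ (List.finRange _).map Sum.inr

theorem mem_ixs (i : chevG2.Idx) : i ∈ ixs := by
  cases i <;> simp [ixs]

theorem mat_one_all : ((List.finRange chevG2.nroots).all fun r => ixs.all fun i => ixs.all fun j =>
    chevG2.xMat (ZMod 2) r 1 i j == tMat r i j) = true := by decide +kernel

theorem mat_zero_all : ((List.finRange chevG2.nroots).all fun r => ixs.all fun i => ixs.all fun j =>
    chevG2.xMat (ZMod 2) r 0 i j == if i = j then 1 else 0) = true := by decide +kernel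

theorem mat_one (r : Fin chevG2.nroots) (i j : chevG2.Idx) : chevG2.xMat (ZMod 2) r 1 i j = tMat r i j :=
  eq_of_beq (List.all_eq_true.1 (List.all_eq_true.1 (List.all_eq_true.1 mat_one_all r (List.mem_finRange r)) i
    (mem_ixs i)) j (mem_ixs j))

theorem mat_zero (r : Fin chevG2.nroots) (i j : chevG2.Idx) :
    chevG2.xMat (ZMod 2) r 0 i j = if i = j then 1 else 0 :=
  eq_of_beq (List.all_eq_true.1 (List.all_eq_true.1 (List.all_eq_true.1 mat_zero_all r (List.mem_finRange r)) i
    (mem_ixs i)) j (mem_ixs j))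

theorem tMat_sq : ∀ (r : Fin 12) (i j : chevG2.Idx), (tMat r * tMat r) i j = if i = j then 1 else 0 := by
  decide +kernel

theorem act_ok : ∀ (r : Fin 12) (k : Fin 63) (i : chevG2.Idx), (tMat r *ᵥ vec k) i = vec (gq r k) i := by
  decide +kernel

theorem gq_invol : ∀ (r : Fin 12) (k : Fin 63), gq r (gq r k) = k := by decide +kernel

theorem vec_inj : ∀ j k : Fin 63, (∀ i, vec j i = vec k i) → j = k := by decide +kernel

theorem span_ok : ∀ i j : chevG2.Idx,
    ((Data.span.getD (code i) []).map fun k => vec (Fin.ofNat 63 k) j).sum = if j = i then 1 else 0 := by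
  decide +kernel

theorem zmod_two_cases : ∀ t : ZMod 2, t = 0 ∨ t = 1 := by decide

/-- A generator. -/
def gen (r : Fin 12) : G :=
  ⟨⟨tMat r, tMat r, Matrix.ext fun i j => (tMat_sq r i j).trans Matrix.one_apply.symm,
      Matrix.ext fun i j => (tMat_sq r i j).trans Matrix.one_apply.symm⟩,
    Subgroup.subset_closure ⟨r, 1, Matrix.ext fun i j => (mat_one r i j).symm⟩⟩

theorem gen_induction {Q : G → Prop} (h1 : Q 1) (hg : ∀ r, Q (gen r))
    (hm : ∀ a b, Q a → Q b → Q (a * b)) (hi : ∀ a, Q a → Q a⁻¹) (g : G) : Q g := by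
  obtain ⟨g, hgm⟩ := g
  refine Subgroup.closure_induction (p := fun x hx => Q ⟨x, hx⟩) ?_ h1 (fun a b ha hb => hm ⟨a, ha⟩ ⟨b, hb⟩)
    (fun a ha => hi ⟨a, ha⟩) hgm
  rintro x ⟨r, t, hx⟩
  rcases zmod_two_cases t with rfl | rfl
  · convert h1
    refine Subtype.ext (Units.ext (Matrix.ext fun i j => ?_))
    show x.val i j = _
    rw [hx, mat_zero r i j]
    exact Matrix.one_apply.symm
  · convert hg r
    refine Subtype.ext (Units.ext (Matrix.ext fun i j => ?_))
    show x.val i j = _
    rw [hx, mat_one r i j]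
    rfl

/-- The matrix of an element. -/
def gmat (g : G) : Matrix chevG2.Idx chevG2.Idx (ZMod 2) := (g : GL chevG2.Idx (ZMod 2)).val

/-- The root element as a permutation. -/
def gperm (r : Fin 12) : Equiv.Perm (Fin 63) := ⟨gq r, gq r, gq_invol r, gq_invol r⟩

theorem exists_perm (g : G) : ∃ π : Equiv.Perm (Fin 63), ∀ k, gmat g *ᵥ vec k = vec (π k) := by
  refine gen_induction (Q := fun g => ∃ π : Equiv.Perm (Fin 63), ∀ k, gmat g *ᵥ vec k = vec (π k)) ?_ ?_ ?_ ?_ g
  · exact ⟨1, fun k => Matrix.one_mulVec _⟩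
  · exact fun r => ⟨gperm r, fun k => funext fun i => act_ok r k i⟩
  · rintro a b ⟨π, ha⟩ ⟨ρ, hb⟩
    refine ⟨π * ρ, fun k => ?_⟩
    rw [Equiv.Perm.mul_apply, ← ha, ← hb, Matrix.mulVec_mulVec]
    rfl
  · rintro a ⟨π, ha⟩
    refine ⟨π⁻¹, fun k => ?_⟩
    have h := ha (π⁻¹ k)
    rw [show π (π⁻¹ k) = k from π.apply_symm_apply k] at h
    rw [← h, Matrix.mulVec_mulVec]
    show (gmat (a⁻¹ * a)) *ᵥ _ = _
    rw [inv_mul_cancel]
    exact Matrix.one_mulVec _

theorem vec_injective : Function.Injective vec := fun j k h => vec_inj j k (congrFun h)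

/-- The permutation representation. -/
noncomputable def sig : G →* Equiv.Perm (Fin 63) :=
  MonoidHom.mk' (fun g => (exists_perm g).choose) fun g h => Equiv.ext fun k => vec_injective (by
    rw [← (exists_perm (g * h)).choose_spec, Equiv.Perm.mul_apply, ← (exists_perm g).choose_spec,
      ← (exists_perm h).choose_spec, Matrix.mulVec_mulVec]
    rfl)

theorem sig_spec (g : G) (k : Fin 63) : gmat g *ᵥ vec k = vec (sig g k) := (exists_perm g).choose_spec k

theorem sig_gen (r : Fin 12) : sig (gen r) = gperm r :=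
  Equiv.ext fun k => vec_injective ((sig_spec (gen r) k).symm.trans (funext fun i => act_ok r k i))

theorem sum_fix (g : G) (h : ∀ k, gmat g *ᵥ vec k = vec k) : ∀ l : List ℕ,
    gmat g *ᵥ (l.map fun k => vec (Fin.ofNat 63 k)).sum = (l.map fun k => vec (Fin.ofNat 63 k)).sum
  | [] => by simp
  | k :: l => by rw [List.map_cons, List.sum_cons, Matrix.mulVec_add, h, sum_fix g h l]

theorem sum_apply (j : chevG2.Idx) : ∀ l : List ℕ,
    (l.map fun k => vec (Fin.ofNat 63 k)).sum j = (l.map fun k => vec (Fin.ofNat 63 k) j).sum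
  | [] => rfl
  | k :: l => by simp only [List.map_cons, List.sum_cons, Pi.add_apply, sum_apply j l]

theorem sig_injective : Function.Injective sig := by
  rw [injective_iff_map_eq_one]
  intro g hg
  have hfix : ∀ k, gmat g *ᵥ vec k = vec k := fun k => by rw [sig_spec, hg, Equiv.Perm.one_apply]
  refine Subtype.ext (Units.ext (Matrix.ext fun i j => ?_))
  have hs : ((Data.span.getD (code j) []).map fun k => vec (Fin.ofNat 63 k)).sum = Pi.single j 1 := by
    funext l
    rw [sum_apply, span_ok, Pi.single_apply]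
  have h := congrFun (sum_fix g hfix (Data.span.getD (code j) [])) i
  rw [hs, Matrix.mulVec_single_one] at h
  show gmat g i j = (1 : Matrix chevG2.Idx chevG2.Idx (ZMod 2)) i j
  rw [Matrix.one_apply]
  exact h.trans (Pi.single_apply j 1 i)

/-- The two permutations generating the derived subgroup. -/
noncomputable def pg (t : Bool) : Equiv.Perm (Fin 63) := sigH (hgen t)

theorem pg_apply (t : Bool) (k : Fin 63) : pg t k = Fin.ofNat 63 ((pTab t).getD k.val 0) := sigH_hgen t k

/-- The element outside. -/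
def sIdx : Fin 12 := Fin.ofNat 12 Data.outer

theorem conj_ok : ∀ (t : Bool) (k : Fin 63),
    gq sIdx (Fin.ofNat 63 ((pTab t).getD (gq sIdx k).val 0)) =
      pap (cond t (Data.conjWords.getD sIdx.val ([], [])).2 (Data.conjWords.getD sIdx.val ([], [])).1) k := by
  decide +kernel

theorem member_ok : ∀ (r : Fin 12) (k : Fin 63),
    cond (Data.membership.getD r.val (false, [])).1 (gq r (gq sIdx k)) (gq r k) =
      pap (Data.membership.getD r.val (false, [])).2 k := by decide +kernel

/-- Evaluation of a word in the root elements. -/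
def gap : List (Fin 12) → Fin 63 → Fin 63
  | [], k => k
  | r :: w, k => gq r (gap w k)

theorem genWords_ok : ∀ (t : Bool) (k : Fin 63),
    Fin.ofNat 63 ((pTab t).getD k.val 0) = gap (Data.genWords.getD (cond t 1 0) []) k := by decide +kernel

theorem comm_ok : ∀ (t : Bool) (k : Fin 63),
    Fin.ofNat 63 ((pTab t).getD k.val 0) =
      pap ((Data.commWords.getD (cond t 1 0) []).getD 0 []) (pap ((Data.commWords.getD (cond t 1 0) []).getD 2 [])
        (pap ((Data.commWords.getD (cond t 1 0) []).getD 1 []) (pap ((Data.commWords.getD (cond t 1 0) []).getD 3 []) k))) := by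
  decide +kernel

theorem comm_inv_ok : ∀ (t : Bool) (k : Fin 63),
    pap ((Data.commWords.getD (cond t 1 0) []).getD 0 []) (pap ((Data.commWords.getD (cond t 1 0) []).getD 1 []) k) = k ∧
      pap ((Data.commWords.getD (cond t 1 0) []).getD 2 []) (pap ((Data.commWords.getD (cond t 1 0) []).getD 3 []) k) = k := by
  decide +kernel

/-- The outer involution. -/
noncomputable def sp : Equiv.Perm (Fin 63) := gperm sIdx

theorem sp_sq : sp * sp = 1 := Equiv.ext fun k => gq_invol sIdx k

theorem sp_conj {x : Equiv.Perm (Fin 63)} (hx : x ∈ P) : sp * x * sp ∈ P := by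
  have hle : P ≤ P.comap (MulAut.conj sp).toMonoidHom := by
    conv_lhs => rw [P]
    rw [Subgroup.closure_le]
    rintro _ ⟨t, rfl⟩
    obtain ⟨p, hp, he⟩ := exists_P (cond t (Data.conjWords.getD sIdx.val ([], [])).2
      (Data.conjWords.getD sIdx.val ([], [])).1)
    show MulAut.conj sp (sigH (hgen t)) ∈ P
    convert hp using 1
    ext k
    rw [MulAut.conj_apply, inv_eq_of_mul_eq_one_right sp_sq, he, ← conj_ok t k]
    show (gq sIdx (sigH (hgen t) (gq sIdx k))).val = _
    rw [sigH_hgen]
  have := hle hx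
  rw [Subgroup.mem_comap, MulEquiv.coe_toMonoidHom, MulAut.conj_apply, inv_eq_of_mul_eq_one_right sp_sq] at this
  exact this

theorem two_classes (g : G) : sig g ∈ P ∨ sig g * sp ∈ P := by
  refine gen_induction (Q := fun g => sig g ∈ P ∨ sig g * sp ∈ P) (Or.inl (by rw [map_one]; exact one_mem _)) ?_ ?_ ?_ g
  · intro r
    obtain ⟨p, hp, he⟩ := exists_P (Data.membership.getD r.val (false, [])).2
    rw [sig_gen]
    cases hb : (Data.membership.getD r.val (false, [])).1
    · left
      convert hp using 1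
      ext k
      rw [he, ← member_ok r k, hb]
      rfl
    · right
      convert hp using 1
      ext k
      rw [he, ← member_ok r k, hb]
      rfl
  · intro a b ha hb
    rw [map_mul]
    rcases ha with ha | ha <;> rcases hb with hb | hb
    · exact Or.inl (mul_mem ha hb)
    · exact Or.inr (by rw [mul_assoc]; exact mul_mem ha hb)
    · right
      rw [show sig a * sig b * sp = sig a * sp * (sp * sig b * sp) by
        simp only [← mul_assoc]; rw [mul_assoc (sig a) sp sp, sp_sq, mul_one]]
      exact mul_mem ha (sp_conj hb)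
    · left
      have h2 := sp_conj hb
      rw [show sp * (sig b * sp) * sp = sp * sig b by rw [mul_assoc, mul_assoc (sig b), sp_sq, mul_one]] at h2
      rw [show sig a * sig b = sig a * sp * (sp * sig b) by
        simp only [← mul_assoc]; rw [mul_assoc (sig a) sp sp, sp_sq, mul_one]]
      exact mul_mem ha h2
  · intro a ha
    rw [map_inv]
    rcases ha with ha | ha
    · exact Or.inl (inv_mem ha)
    · right
      have h2 := sp_conj (inv_mem ha)
      rwa [_root_.mul_inv_rev, inv_eq_of_mul_eq_one_right sp_sq, ← mul_assoc sp sp, sp_sq, one_mul] at h2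

theorem class_mul (a b : G) : (sig (a * b) ∈ P ∧ sig (b * a) ∈ P) ∨ (sig (a * b) * sp ∈ P ∧ sig (b * a) * sp ∈ P) := by
  rcases two_classes a with ha | ha <;> rcases two_classes b with hb | hb
  · exact Or.inl ⟨by rw [map_mul]; exact mul_mem ha hb, by rw [map_mul]; exact mul_mem hb ha⟩
  · refine Or.inr ⟨by rw [map_mul, mul_assoc]; exact mul_mem ha hb, ?_⟩
    rw [map_mul, show sig b * sig a * sp = sig b * sp * (sp * sig a * sp) by
      simp only [← mul_assoc]; rw [mul_assoc (sig b) sp sp, sp_sq, mul_one]]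
    exact mul_mem hb (sp_conj ha)
  · refine Or.inr ⟨?_, by rw [map_mul, mul_assoc]; exact mul_mem hb ha⟩
    rw [map_mul, show sig a * sig b * sp = sig a * sp * (sp * sig b * sp) by
      simp only [← mul_assoc]; rw [mul_assoc (sig a) sp sp, sp_sq, mul_one]]
    exact mul_mem ha (sp_conj hb)
  · have key : ∀ x y : G, sig x * sp ∈ P → sig y * sp ∈ P → sig (x * y) ∈ P := by
      intro x y hx hy
      have h2 := sp_conj hy
      rw [show sp * (sig y * sp) * sp = sp * sig y by rw [mul_assoc, mul_assoc (sig y), sp_sq, mul_one]] at h2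
      rw [map_mul, show sig x * sig y = sig x * sp * (sp * sig y) by
        simp only [← mul_assoc]; rw [mul_assoc (sig x) sp sp, sp_sq, mul_one]]
      exact mul_mem hx h2
    exact Or.inl ⟨key a b ha hb, key b a hb ha⟩

theorem map_commutator_eq_P : (commutator G).map sig = P := by
  refine le_antisymm ?_ ?_
  · rw [Subgroup.map_le_iff_le_comap, commutator_def, Subgroup.commutator_le]
    intro a _ b _
    rw [Subgroup.mem_comap, commutatorElement_def, show a * b * a⁻¹ * b⁻¹ = (a * b) * (b * a)⁻¹ by group,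
      map_mul, map_inv]
    rcases class_mul a b with ⟨h1, h2⟩ | ⟨h1, h2⟩
    · exact mul_mem h1 (inv_mem h2)
    · have h3 := mul_mem h1 (inv_mem h2)
      rwa [_root_.mul_inv_rev, ← mul_assoc, mul_assoc _ sp, mul_inv_cancel, mul_one] at h3
  · have hrange : P ≤ sig.range := by
      rw [P, Subgroup.closure_le]
      rintro _ ⟨t, rfl⟩
      have : ∀ w : List (Fin 12), ∃ g : G, ∀ k, sig g k = gap w k := fun w => by
        induction w with
        | nil => exact ⟨1, fun k => by rw [map_one]; rfl⟩
        | cons r w ih =>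
          obtain ⟨g, hg⟩ := ih
          exact ⟨gen r * g, fun k => by rw [map_mul, Equiv.Perm.mul_apply, sig_gen, hg]; rfl⟩
      obtain ⟨g, hg⟩ := this (Data.genWords.getD (cond t 1 0) [])
      exact ⟨g, Equiv.ext fun k => by rw [hg, ← genWords_ok, ← sigH_hgen]⟩
    conv_lhs => rw [P]
    rw [Subgroup.closure_le]
    rintro _ ⟨t, rfl⟩
    obtain ⟨u, hu, hue⟩ := exists_P ((Data.commWords.getD (cond t 1 0) []).getD 0 [])
    obtain ⟨u', hu', hue'⟩ := exists_P ((Data.commWords.getD (cond t 1 0) []).getD 1 [])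
    obtain ⟨v, hv, hve⟩ := exists_P ((Data.commWords.getD (cond t 1 0) []).getD 2 [])
    obtain ⟨v', hv', hve'⟩ := exists_P ((Data.commWords.getD (cond t 1 0) []).getD 3 [])
    have hiu : u⁻¹ = u' := inv_eq_of_mul_eq_one_right (Equiv.ext fun k => by
      rw [Equiv.Perm.mul_apply, hue, hue']; exact (comm_inv_ok t k).1)
    have hiv : v⁻¹ = v' := inv_eq_of_mul_eq_one_right (Equiv.ext fun k => by
      rw [Equiv.Perm.mul_apply, hve, hve']; exact (comm_inv_ok t k).2)
    obtain ⟨a, rfl⟩ := hrange hu
    obtain ⟨b, rfl⟩ := hrange hv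
    refine ⟨⁅a, b⁆, Subgroup.commutator_mem_commutator (Subgroup.mem_top a) (Subgroup.mem_top b), Equiv.ext fun k => ?_⟩
    rw [map_commutatorElement, commutatorElement_def, hiu, hiv]
    show sig a (sig b (u' (v' k))) = sigH (hgen t) k
    rw [hue, hve, hue', hve', sigH_hgen]
    exact (comm_ok t k).symm

theorem commutator_equiv {F K : Type*} [Field F] [Fintype F] [Field K] [Fintype K]
    (hF : Fintype.card F = 2) (hK : Fintype.card K = 9) :
    Nonempty (commutator (chevG2.group F) ≃* Cfsg.PSU 3 K 3) := by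
  haveI := Fact.mk Nat.prime_two
  haveI := Fact.mk Nat.prime_three
  let e : ZMod 2 ≃+* F := ZMod.ringEquivOfPrime F Nat.prime_two hF
  let e₁ : G ≃* chevG2.group F :=
    ((chevG2.group (ZMod 2)).equivMapOfInjective _ (CfsgLib.Chev.glMap_injective chevG2 (e : ZMod 2 →+* F))).trans
      (MulEquiv.subgroupCongr (CfsgLib.Chev.map_group_eq chevG2 (e : ZMod 2 →+* F) e.surjective))
  have hc : (commutator G).map e₁.toMonoidHom = commutator (chevG2.group F) := by
    rw [commutator_def, Subgroup.map_commutator, Subgroup.map_top_of_surjective _ e₁.surjective, ← commutator_def]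
  have hchar : CharP K 3 := by
    obtain ⟨p, hc⟩ := CharP.exists K
    obtain ⟨n, hp, hn⟩ := FiniteField.card K p
    have h3 : p ∣ 3 ^ 2 := by
      have : (3 : ℕ) ^ 2 = p ^ (n : ℕ) := by rw [← hn, hK]; norm_num
      rw [this]; exact dvd_pow_self p n.pos.ne'
    obtain rfl := (Nat.prime_dvd_prime_iff_eq hp Nat.prime_three).mp (hp.dvd_of_dvd_pow h3)
    exact hc
  obtain ⟨i0, hi⟩ : IsSquare (-1 : K) := FiniteField.isSquare_neg_one_iff.mpr (by rw [hK]; norm_num)
  obtain ⟨u⟩ := psu_iso i0 hi.symm hK
  exact ⟨((MulEquiv.subgroupCongr hc.symm).trans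
    (((commutator G).equivMapOfInjective _ e₁.injective).symm)).trans
    (((commutator G).equivMapOfInjective _ sig_injective).trans
      ((MulEquiv.subgroupCongr (map_commutator_eq_P.trans sigH_bijective.2.symm)).trans
        ((MonoidHom.ofInjective sigH_bijective.1).symm.trans u)))⟩

end CfsgLib.G2Two
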